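import Mathlib

/-!
# A count over `F₃^8` (helper748; task 208 of helper919)
-/

set_option autoImplicit false

namespace Cfsg.Agent.H748.QThree

/-- sum over the digits -/
def sum3 (g : ℕ → ℕ) : ℕ := g 0 + g 1 + g 2

/-- Gram entries of `(y, z)` for the form `y₀ z₁ + y₁ z₀ + y₂ z₂ + y₃ z₃` -/
def gr (a0 a1 a2 a3 b0 b1 b2 b3 : ℕ) : ℕ := a0 * b1 + a1 * b0 + a2 * b2 + a3 * b3

/-- the predicate "Gram matrix zero, or determinant 1 (if `e1`), or determinant 2 (if `e2`)" -/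
def inS (e1 e2 : Bool) (a0 a1 a2 a3 b0 b1 b2 b3 : ℕ) : Bool :=
  let p := gr a0 a1 a2 a3 a0 a1 a2 a3
  let r := gr b0 b1 b2 b3 b0 b1 b2 b3
  let q := gr a0 a1 a2 a3 b0 b1 b2 b3
  let d := (p * r + 2 * (q * q)) % 3
  (p % 3 == 0 && q % 3 == 0 && r % 3 == 0) || (e1 && d == 1) || (e2 && d == 2)

/-- number of digit vectors satisfying `P` -/
def cnt (P : ℕ → ℕ → ℕ → ℕ → ℕ → ℕ → ℕ → ℕ → Bool) : ℕ :=
  sum3 fun a0 => sum3 fun a1 => sum3 fun a2 => sum3 fun a3 =>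
    sum3 fun b0 => sum3 fun b1 => sum3 fun b2 => sum3 fun b3 => bif P a0 a1 a2 a3 b0 b1 b2 b3 then 1 else 0

/-- the three orthogonality conditions -/
def o0 (_ _ _ _ _ b1 _ _ : ℕ) : Bool := b1 % 3 == 0
/-- orthogonal to the first vector of determinant 1 -/
def o1 (_ _ _ a3 _ _ b2 _ : ℕ) : Bool := (b2 + 2 * a3) % 3 == 0
/-- orthogonal to the vector of determinant 2 -/
def o2 (a0 _ _ _ _ b1 _ _ : ℕ) : Bool := (b1 + 2 * a0) % 3 == 0

theorem c10 : cnt (fun a0 a1 a2 a3 b0 b1 b2 b3 => inS true false a0 a1 a2 a3 b0 b1 b2 b3 && o0 a0 a1 a2 a3 b0 b1 b2 b3)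
    = 891 := by decide +kernel

theorem c11 : cnt (fun a0 a1 a2 a3 b0 b1 b2 b3 => inS true false a0 a1 a2 a3 b0 b1 b2 b3 && o1 a0 a1 a2 a3 b0 b1 b2 b3)
    = 771 := by decide +kernel

theorem d10 : cnt (fun a0 a1 a2 a3 b0 b1 b2 b3 => inS true true a0 a1 a2 a3 b0 b1 b2 b3 && o0 a0 a1 a2 a3 b0 b1 b2 b3)
    = 1431 := by decide +kernel

theorem d11 : cnt (fun a0 a1 a2 a3 b0 b1 b2 b3 => inS true true a0 a1 a2 a3 b0 b1 b2 b3 && o1 a0 a1 a2 a3 b0 b1 b2 b3)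
    = 1491 := by decide +kernel

theorem e10 : cnt (fun a0 a1 a2 a3 b0 b1 b2 b3 => inS false true a0 a1 a2 a3 b0 b1 b2 b3 && o0 a0 a1 a2 a3 b0 b1 b2 b3)
    = 567 := by decide +kernel

theorem e12 : cnt (fun a0 a1 a2 a3 b0 b1 b2 b3 => inS false true a0 a1 a2 a3 b0 b1 b2 b3 && o2 a0 a1 a2 a3 b0 b1 b2 b3)
    = 759 := by decide +kernel

/-- digit vectors -/
abbrev D4 : Type := Fin 3 × Fin 3 × Fin 3 × Fin 3

theorem card_eq_cnt (P : ℕ → ℕ → ℕ → ℕ → ℕ → ℕ → ℕ → ℕ → Bool) :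
    Nat.card {x : D4 × D4 // P x.1.1 x.1.2.1 x.1.2.2.1 x.1.2.2.2 x.2.1 x.2.2.1 x.2.2.2.1 x.2.2.2.2 = true} = cnt P := by
  classical
  rw [Nat.card_eq_fintype_card, Fintype.card_subtype, Finset.card_filter]
  have h : ∀ b : Bool, (if b = true then 1 else 0 : ℕ) = (bif b then 1 else 0) := by
    intro b; cases b <;> rfl
  simp only [Fintype.sum_prod_type, h, Fin.sum_univ_three]
  rfl

/-- every symmetric matrix of determinant `1` over `F₃` is congruent to `1` under `SL₂`. -/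
theorem congr_one : ∀ p q r : ZMod 3, p * r - q ^ 2 = 1 → ∃ a b c d : ZMod 3, a * d - b * c = 1 ∧
    a * a * p + 2 * a * b * q + b * b * r = 1 ∧ a * c * p + (a * d + b * c) * q + b * d * r = 0 ∧
    c * c * p + 2 * c * d * q + d * d * r = 1 := by decide +kernel

/-- every symmetric matrix of determinant `-1` over `F₃` is congruent to `(0,1;1,0)` under `SL₂`. -/
theorem congr_two : ∀ p q r : ZMod 3, p * r - q ^ 2 = -1 → ∃ a b c d : ZMod 3, a * d - b * c = 1 ∧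
    a * a * p + 2 * a * b * q + b * b * r = 0 ∧ a * c * p + (a * d + b * c) * q + b * d * r = 1 ∧
    c * c * p + 2 * c * d * q + d * d * r = 0 := by decide +kernel

end Cfsg.Agent.H748.QThree
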