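import Cfsg.Agent.H924.TenCenter
import Cfsg.Agent.ClassicalGeometry.WittQuad
import Cfsg.Agent.H748.QThreeCount

/-!
# `Sp_2(3) ⊗ O_4^-(3)` in `Sp_8(3)`: the orbit of a pure singular vector (helper748; task 208 of helper919)
-/

set_option autoImplicit false
set_option linter.unusedSectionVars false

open Cfsg Cfsg.Geo Matrix
open scoped Kronecker

namespace Cfsg.Agent.H748.QThree

open Cfsg.Agent.H929 (QF rB)
open Cfsg.Agent.H872 Cfsg.Agent.H924.Ten

variable {β : Type} [Fintype β] [DecidableEq β] {F : Type*} [Field F]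
variable {f₁ : (Fin 2 → F) → (Fin 2 → F) → F} {Q : (β → F) → F} {B : (β → F) → (β → F) → F}
  {f : (Fin 2 × β → F) → (Fin 2 × β → F) → F}

/-- the rows of a vector -/
def row (v : Fin 2 × β → F) (i : Fin 2) : β → F := fun j => v (i, j)

/-- the vector with rows `x`, `y` -/
def vec (x y : β → F) : Fin 2 × β → F := ten (Pi.single 0 1) x + ten (Pi.single 1 1) y

theorem vec_row (v : Fin 2 × β → F) : vec (row v 0) (row v 1) = v := by
  conv_rhs => rw [eq_sum_ten v]
  rw [Fin.sum_univ_two]
  rfl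

theorem row_vec_zero (x y : β → F) : row (vec x y) 0 = x := by
  funext j
  simp [row, vec, ten_apply]

theorem row_vec_one (x y : β → F) : row (vec x y) 1 = y := by
  funext j
  simp [row, vec, ten_apply]

theorem ten_eq_vec (u : Fin 2 → F) (w : β → F) : ten u w = vec (u 0 • w) (u 1 • w) := by
  rw [← vec_row (ten u w)]
  rfl

/-- Gram determinant -/
def gdet (B : (β → F) → (β → F) → F) (v : Fin 2 × β → F) : F :=
  B (row v 0) (row v 0) * B (row v 1) (row v 1) - B (row v 0) (row v 1) ^ 2

/-- Gram matrix zero -/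
def gzero (B : (β → F) → (β → F) → F) (v : Fin 2 × β → F) : Prop :=
  B (row v 0) (row v 0) = 0 ∧ B (row v 0) (row v 1) = 0 ∧ B (row v 1) (row v 1) = 0

theorem kr_vec (a : GL (Fin 2) F) (b : GL β F) (x y : β → F) :
    (kr (a, b) : Matrix (Fin 2 × β) (Fin 2 × β) F) *ᵥ vec x y =
      vec ((b : Matrix β β F) *ᵥ (a.val 0 0 • x + a.val 0 1 • y))
        ((b : Matrix β β F) *ᵥ (a.val 1 0 • x + a.val 1 1 • y)) := by
  have h1 : ∀ (i : Fin 2), (a : Matrix (Fin 2) (Fin 2) F) *ᵥ (Pi.single i 1) =
      a.val 0 i • (Pi.single 0 1 : Fin 2 → F) + a.val 1 i • (Pi.single 1 1 : Fin 2 → F) := by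
    intro i
    funext k
    fin_cases k <;> simp
  rw [vec, mulVec_add, kr_mulVec_ten, kr_mulVec_ten, h1, h1, vec, mulVec_add, mulVec_add, mulVec_smul, mulVec_smul,
    mulVec_smul, mulVec_smul, ten_add_left, ten_add_left, ten_add_right, ten_add_right]
  simp only [ten_smul_left, ten_smul_right]
  abel

variable (T : Tens f₁ Q B f)

include T

theorem form_vec (x y x' y' : β → F) :
    f (vec x y) (vec x' y') = f₁ (Pi.single 0 1) (Pi.single 1 1) * (B x y' - B y x') := by
  have h0 := T.sym.alternating (Pi.single 0 1)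
  have h1 := T.sym.alternating (Pi.single 1 1)
  have h2 := T.sym.skew (Pi.single 1 1) (Pi.single 0 1)
  rw [vec, vec, T.bil.add_left, T.bil.add_right, T.bil.add_right, T.ten, T.ten, T.ten, T.ten, h0, h1, h2]
  ring

theorem f₁_ne : f₁ (Pi.single 0 1) (Pi.single 1 1) ≠ 0 := by
  intro h
  have h0 := T.sym.alternating (Pi.single 0 1)
  have : (Pi.single 0 1 : Fin 2 → F) = 0 := by
    apply T.eq_zero_of_f₁
    intro u
    have hu : u = u 0 • (Pi.single 0 1 : Fin 2 → F) + u 1 • (Pi.single 1 1 : Fin 2 → F) := by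
      funext i
      fin_cases i <;> simp
    rw [hu, T.sym.bilinear.add_right, T.sym.bilinear.smul_right, T.sym.bilinear.smul_right, h0, h]
    ring
  have h3 := congrFun this 0
  simp at h3

/-- a matrix of determinant one preserves `f₁`. -/
theorem f₁_map (a : GL (Fin 2) F) (ha : a.val 0 0 * a.val 1 1 -
    a.val 0 1 * a.val 1 0 = 1) (u v : Fin 2 → F) :
    f₁ ((a : Matrix _ _ F) *ᵥ u) ((a : Matrix _ _ F) *ᵥ v) = f₁ u v := by
  have h0 := T.sym.alternating (Pi.single 0 1)
  have h1 := T.sym.alternating (Pi.single 1 1)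
  have h2 := T.sym.skew (Pi.single 1 1) (Pi.single 0 1)
  have hexp : ∀ u : Fin 2 → F, u = u 0 • (Pi.single 0 1 : Fin 2 → F) + u 1 • (Pi.single 1 1 : Fin 2 → F) := by
    intro u
    funext i
    fin_cases i <;> simp
  have key : ∀ u v : Fin 2 → F, f₁ u v = (u 0 * v 1 - u 1 * v 0) * f₁ (Pi.single 0 1) (Pi.single 1 1) := by
    intro u v
    conv_lhs => rw [hexp u, hexp v]
    rw [T.sym.bilinear.add_left, T.sym.bilinear.add_right, T.sym.bilinear.add_right, T.sym.bilinear.smul_left,
      T.sym.bilinear.smul_left, T.sym.bilinear.smul_left, T.sym.bilinear.smul_left, T.sym.bilinear.smul_right,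
      T.sym.bilinear.smul_right, T.sym.bilinear.smul_right, T.sym.bilinear.smul_right, h0, h1, h2]
    ring
  rw [key, key u v]
  have e0 : ∀ w : Fin 2 → F, ((a : Matrix (Fin 2) (Fin 2) F) *ᵥ w) 0 = a.val 0 0 * w 0 + a.val 0 1 * w 1 := by
    intro w
    simp [mulVec, dotProduct, Fin.sum_univ_two]
  have e1 : ∀ w : Fin 2 → F, ((a : Matrix (Fin 2) (Fin 2) F) *ᵥ w) 1 = a.val 1 0 * w 0 + a.val 1 1 * w 1 := by
    intro w
    simp [mulVec, dotProduct, Fin.sum_univ_two]
  rw [e0, e0, e1, e1]
  linear_combination (u 0 * v 1 - u 1 * v 0) * f₁ (Pi.single 0 1) (Pi.single 1 1) * ha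

/-- Witt's lemma in the language of `QF`. -/
theorem witt (k : ℕ) (x y : Fin k → β → F) (hx : LinearIndependent F x) (hy : LinearIndependent F y)
    (hB : ∀ i j, B (x i) (x j) = B (y i) (y j)) :
    ∃ b : GL β F, (∀ u v, B ((b : Matrix β β F) *ᵥ u) ((b : Matrix β β F) *ᵥ v) = B u v) ∧
      ∀ i, (b : Matrix β β F) *ᵥ x i = y i := by
  let q : QuadraticForm F (β → F) := QuadraticMap.ofPolar Q (fun a x => by rw [T.qf.smul, sq]; rfl)
    (fun x x' y => by
      change Q (x + x' + y) - Q (x + x') - Q y = (Q (x + y) - Q x - Q y) + (Q (x' + y) - Q x' - Q y)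
      rw [T.qf.add, T.qf.add x y, T.qf.add x' y, T.qf.add_left]; ring)
    (fun a x y => by
      change Q (a • x + y) - Q (a • x) - Q y = a • (Q (x + y) - Q x - Q y)
      rw [T.qf.add, T.qf.add, T.qf.smul_left, smul_eq_mul]; ring)
  have hq : ∀ v, q v = Q v := fun v => rfl
  have hpol : ∀ u v, QuadraticMap.polarBilin q u v = B u v := by
    intro u v
    rw [QuadraticMap.polarBilin_apply_apply]
    change Q (u + v) - Q u - Q v = B u v
    rw [T.qf.add]; ring
  have hnd : (QuadraticMap.polarBilin q).Nondegenerate := by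
    constructor
    · intro u hu
      by_contra h0
      obtain ⟨v, hv⟩ := T.nd u h0
      exact hv (by rw [← hpol]; exact hu v)
    · intro u hu
      by_contra h0
      obtain ⟨v, hv⟩ := T.nd u h0
      exact hv (by rw [T.qf.comm, ← hpol]; exact hu v)
  obtain ⟨g, hg, hgx⟩ := Cfsg.Agent.ClassicalGeometry.WittQuad.extend_family q hnd k x y hx hy
    (fun i => by
      have h1 := hB i i
      rw [T.qf.self, T.qf.self] at h1
      rw [hq, hq]
      exact mul_left_cancel₀ T.two h1)
    (fun i j => by rw [hpol, hpol, hB])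
  obtain ⟨b, hb⟩ := exists_gl_of_injective (g : (β → F) →ₗ[F] (β → F)) (fun v hv => by
    have : g v = 0 := hv
    exact (LinearEquiv.map_eq_zero_iff g).1 this)
  have hb' : ∀ v, (b : Matrix β β F) *ᵥ v = g v := hb
  refine ⟨b, fun u v => ?_, fun i => by rw [hb', hgx]⟩
  rw [hb', hb', ← hpol, ← hpol u v]
  exact Cfsg.Agent.ClassicalGeometry.WittQuad.polar_map q g (map_add g) hg u v

theorem linInd_pair {x y : β → F} (h : B x x * B y y - B x y ^ 2 ≠ 0) : LinearIndependent F ![x, y] := by
  rw [LinearIndependent.pair_iff]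
  intro c d hcd
  have h1 : c * B x x + d * B x y = 0 := by
    have := congrArg (fun v => B v x) hcd
    simp only [T.qf.add_left, T.qf.smul_left, T.qf.zero_left] at this
    rw [T.qf.comm y x] at this
    exact this
  have h2 : c * B x y + d * B y y = 0 := by
    have := congrArg (fun v => B v y) hcd
    simp only [T.qf.add_left, T.qf.smul_left, T.qf.zero_left] at this
    exact this
  constructor
  · have : c * (B x x * B y y - B x y ^ 2) = 0 := by linear_combination B y y * h1 - B x y * h2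
    exact (mul_eq_zero.1 this).resolve_right h
  · have : d * (B x x * B y y - B x y ^ 2) = 0 := by linear_combination B x x * h2 - B x y * h1
    exact (mul_eq_zero.1 this).resolve_right h

variable {M : Subgroup (GL (Fin 2 × β) F)} (hM : Grp f₁ B f M)

include hM

/-- moving a vector to a given pair of rows by `Sp(U) ⊗ O(W)` -/
theorem exists_move (A : Matrix (Fin 2) (Fin 2) F) (hA : A 0 0 * A 1 1 - A 0 1 * A 1 0 = 1) {v0 v1 x y : β → F}
    (hne : B x x * B y y - B x y ^ 2 ≠ 0)
    (h00 : B (A 0 0 • v0 + A 0 1 • v1) (A 0 0 • v0 + A 0 1 • v1) = B x x)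
    (h01 : B (A 0 0 • v0 + A 0 1 • v1) (A 1 0 • v0 + A 1 1 • v1) = B x y)
    (h11 : B (A 1 0 • v0 + A 1 1 • v1) (A 1 0 • v0 + A 1 1 • v1) = B y y) :
    ∃ h ∈ M, (h : Matrix (Fin 2 × β) (Fin 2 × β) F) *ᵥ vec v0 v1 = vec x y := by
  have hdet : A.det ≠ 0 := by
    rw [Matrix.det_fin_two, hA]; exact one_ne_zero
  let a : GL (Fin 2) F := Matrix.GeneralLinearGroup.mkOfDetNeZero A hdet
  have ha : a.val = A := rfl
  obtain ⟨b, hb, hbx⟩ := witt T 2 ![A 0 0 • v0 + A 0 1 • v1, A 1 0 • v0 + A 1 1 • v1] ![x, y]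
    (linInd_pair T (by rw [h00, h01, h11]; exact hne)) (linInd_pair T hne) (by
      intro i j
      fin_cases i <;> fin_cases j
      · exact h00
      · exact h01
      · change B (A 1 0 • v0 + A 1 1 • v1) (A 0 0 • v0 + A 0 1 • v1) = B y x
        rw [T.qf.comm, h01, T.qf.comm]
      · exact h11)
  refine ⟨kr (a, b), hM.mem a b 1 one_ne_zero (fun u v => ?_) (fun u v => ?_), ?_⟩
  · rw [one_mul]
    exact f₁_map T a (by rw [ha]; exact hA) u v
  · rw [inv_one, one_mul]
    exact hb u v
  · rw [kr_vec, ha]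
    have e0 := hbx 0
    have e1 := hbx 1
    change (b : Matrix β β F) *ᵥ (A 0 0 • v0 + A 0 1 • v1) = x at e0
    change (b : Matrix β β F) *ᵥ (A 1 0 • v0 + A 1 1 • v1) = y at e1
    rw [e0, e1]

/-- pure singular vectors are conjugate -/
theorem exists_move_zero {u : Fin 2 → F} {y s : β → F} (hu : u ≠ 0) (hy : y ≠ 0) (hs : s ≠ 0) (hQy : Q y = 0)
    (hQs : Q s = 0) : ∃ h ∈ M, (h : Matrix (Fin 2 × β) (Fin 2 × β) F) *ᵥ ten u y = ten (Pi.single 0 1) s := by
  have h10 : (Pi.single 0 1 : Fin 2 → F) ≠ 0 := by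
    intro h
    have := congrFun h 0
    simp at this
  obtain ⟨a, ha, hiso⟩ := exists_map T.sym hu h10
  obtain ⟨b, hb, hbx⟩ := witt T 1 ![y] ![s] (by simpa using hy) (by simpa using hs) (by
      intro i j
      fin_cases i; fin_cases j
      change B y y = B s s
      rw [T.qf.self, T.qf.self, hQy, hQs])
  refine ⟨kr (a, b), hM.mem a b 1 one_ne_zero (fun u v => ?_) (fun u v => ?_), ?_⟩
  · rw [one_mul]
    exact hiso u v
  · rw [inv_one, one_mul]
    exact hb u v
  · rw [kr_mulVec_ten]
    have e0 := hbx 0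
    change (b : Matrix β β F) *ᵥ y = s at e0
    change ten ((a : Matrix (Fin 2) (Fin 2) F) *ᵥ u) ((b : Matrix β β F) *ᵥ y) = _
    rw [ha, e0]

omit hM

theorem gram_expand (a b c d : F) (v0 v1 : β → F) : B (a • v0 + b • v1) (c • v0 + d • v1) =
    a * c * B v0 v0 + (a * d + b * c) * B v0 v1 + b * d * B v1 v1 := by
  rw [T.qf.add_left, T.qf.add_right, T.qf.add_right, T.qf.smul_left, T.qf.smul_left, T.qf.smul_left, T.qf.smul_left,
    T.qf.smul_right, T.qf.smul_right, T.qf.smul_right, T.qf.smul_right, T.qf.comm v1 v0]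
  ring

/-- the frame -/
structure Frame (B : (β → F) → (β → F) → F) (s t w z : β → F) : Prop where
  ss : B s s = 0
  tt : B t t = 0
  st : B s t = 1
  sw : B s w = 0
  sz : B s z = 0
  tw : B t w = 0
  tz : B t z = 0
  ww : B w w = 1
  wz : B w z = 0
  zz : B z z = 1

theorem exists_frame [Fintype F] (hF : Fintype.card F = 3) (hβ : Fintype.card β = 4)
    (hminus : ∀ x y : β → F, Q x = 0 → Q y = 0 → B x y = 0 → ∃ c d : F, (c ≠ 0 ∨ d ≠ 0) ∧ c • x + d • y = 0)
    {s : β → F} (hs : s ≠ 0) (hQs : Q s = 0) : ∃ t w z, Frame B s t w z := by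
  have hch : CharP F 3 := by
    have : Fact (Nat.Prime 3) := ⟨Nat.prime_three⟩
    exact charP_of_card_eq_prime hF
  have h3 : (3 : F) = 0 := by
    have := CharP.cast_eq_zero F 3
    exact_mod_cast this
  have hcases : ∀ c : F, c = 0 ∨ c = 1 ∨ c = -1 := by
    intro c
    have h1 : c ^ 3 = c := by
      have := FiniteField.pow_card c
      rwa [hF] at this
    have h2 : c * ((c - 1) * (c + 1)) = 0 := by linear_combination h1
    rcases mul_eq_zero.1 h2 with h | h
    · exact Or.inl h
    · rcases mul_eq_zero.1 h with h | h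
      · exact Or.inr (Or.inl (sub_eq_zero.1 h))
      · exact Or.inr (Or.inr (eq_neg_of_add_eq_zero_left h))
  obtain ⟨t, -, hQt, hst⟩ := T.qf.exists_hyperbolic ⊤ (fun x _ hx => by
    obtain ⟨y, hy⟩ := T.nd x hx
    exact ⟨y, trivial, hy⟩) (a := s) trivial hs hQs
  have hss : B s s = 0 := by rw [T.qf.self, hQs, mul_zero]
  have htt : B t t = 0 := by rw [T.qf.self, hQt, mul_zero]
  let L : (β → F) →ₗ[F] F × F :=
    { toFun := fun x => (B x s, B x t)
      map_add' := fun x y => by rw [T.qf.add_left, T.qf.add_left]; rfl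
      map_smul' := fun c x => by rw [T.qf.smul_left, T.qf.smul_left]; rfl }
  have hmem : ∀ x, x ∈ LinearMap.ker L ↔ B x s = 0 ∧ B x t = 0 := by
    intro x
    rw [LinearMap.mem_ker]
    exact Prod.mk_eq_zero
  have hdim : 2 ≤ Module.finrank F (LinearMap.ker L) := by
    have h1 := L.finrank_range_add_finrank_ker
    have h2 : Module.finrank F (LinearMap.range L) ≤ 2 := by
      refine (Submodule.finrank_le _).trans ?_
      simp
    rw [Module.finrank_fintype_fun_eq_card, hβ] at h1
    omega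
  have haniso : ∀ x ∈ LinearMap.ker L, x ≠ 0 → B x x ≠ 0 := by
    intro x hx hx0 h
    rw [hmem] at hx
    have hQx : Q x = 0 := by
      rw [T.qf.self] at h
      exact (mul_eq_zero.1 h).resolve_left T.two
    obtain ⟨c, d, hcd, he⟩ := hminus s x hQs hQx (by rw [T.qf.comm]; exact hx.1)
    have h1 := congrArg (fun v => B v t) he
    simp only [T.qf.add_left, T.qf.smul_left, T.qf.zero_left] at h1
    rw [hst, hx.2, mul_one, mul_zero, add_zero] at h1
    rw [h1, zero_smul, zero_add] at he
    rcases hcd with h2 | h2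
    · exact h2 h1
    · exact hx0 ((smul_eq_zero.1 he).resolve_left h2)
  -- an orthogonal pair
  obtain ⟨x, y, hxU, hyU, hx0, hy0, hxy⟩ : ∃ x y, x ∈ LinearMap.ker L ∧ y ∈ LinearMap.ker L ∧ x ≠ 0 ∧ y ≠ 0 ∧ B x y = 0 := by
    obtain ⟨x, hx, hx0⟩ : ∃ x ∈ LinearMap.ker L, x ≠ 0 := by
      apply Submodule.exists_mem_ne_zero_of_ne_bot
      intro h
      rw [h, finrank_bot] at hdim
      omega
    obtain ⟨y, hy, hyx⟩ : ∃ y ∈ LinearMap.ker L, y ∉ Submodule.span F {x} := by
      by_contra hcon
      push Not at hcon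
      have h1 : LinearMap.ker L ≤ Submodule.span F {x} := hcon
      have h2 := Submodule.finrank_mono h1
      rw [finrank_span_singleton hx0] at h2
      omega
    have hxx := haniso x hx hx0
    refine ⟨x, y - (B x y / B x x) • x, hx, Submodule.sub_mem _ hy (Submodule.smul_mem _ _ hx), hx0, ?_, ?_⟩
    · intro h
      apply hyx
      rw [Submodule.mem_span_singleton]
      exact ⟨_, (sub_eq_zero.1 h).symm⟩
    · rw [T.qf.sub_right, T.qf.smul_right, div_mul_cancel₀ _ hxx, sub_self]
  have hxx := haniso x hxU hx0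
  have hyy := haniso y hyU hy0
  have hxy' : ∀ w ∈ LinearMap.ker L, ∀ z ∈ LinearMap.ker L, B w w = 1 → B w z = 0 → B z z = 1 → Frame B s t w z := by
    intro w hw z hz h1 h2 h3'
    rw [hmem] at hw hz
    exact
      { ss := hss
        tt := htt
        st := hst
        sw := by rw [T.qf.comm]; exact hw.1
        sz := by rw [T.qf.comm]; exact hz.1
        tw := by rw [T.qf.comm]; exact hw.2
        tz := by rw [T.qf.comm]; exact hz.2
        ww := h1
        wz := h2
        zz := h3' }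
  have hsum : B (x + y) (x + y) = B x x + B y y := by
    rw [T.qf.add_left, T.qf.add_right, T.qf.add_right, T.qf.comm y x, hxy]; ring
  have hopp : B x x + B y y ≠ 0 := by
    rw [← hsum]
    apply haniso _ (Submodule.add_mem _ hxU hyU)
    intro h
    have h1 := congrArg (fun v => B x v) h
    simp only [T.qf.add_right, T.qf.zero_right] at h1
    rw [hxy, add_zero] at h1
    exact hxx h1
  rcases hcases (B x x) with h | h | h
  · exact absurd h hxx
  · rcases hcases (B y y) with h' | h' | h'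
    · exact absurd h' hyy
    · exact ⟨t, x, y, hxy' x hxU y hyU h hxy h'⟩
    · exact absurd (by rw [h, h']; ring) hopp
  · rcases hcases (B y y) with h' | h' | h'
    · exact absurd h' hyy
    · exact absurd (by rw [h, h']; ring) hopp
    · refine ⟨t, x + y, x - y, hxy' _ (Submodule.add_mem _ hxU hyU) _ (Submodule.sub_mem _ hxU hyU) ?_ ?_ ?_⟩
      · rw [hsum, h, h']; linear_combination (-1 : F) * h3
      · rw [T.qf.add_left, T.qf.sub_right, T.qf.sub_right, T.qf.comm y x, hxy, h, h']; ring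
      · rw [T.qf.sub_left, T.qf.sub_right, T.qf.sub_right, T.qf.comm y x, hxy, h, h']
        linear_combination (-1 : F) * h3

end Cfsg.Agent.H748.QThree
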